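import Cfsg.Agent.CosetEnum.Step
import Cfsg.Agent.CosetEnum.MM22.CP0
import Cfsg.Agent.CosetEnum.Level
import Cfsg.Agent.CosetEnum.MM22.T4R0
import Cfsg.Agent.CosetEnum.MM22.T4R1
import Cfsg.Agent.CosetEnum.MM22.T4R2
import Cfsg.Agent.CosetEnum.MM22.T4R3
import Cfsg.Agent.CosetEnum.MM22.T4R4
import Cfsg.Agent.CosetEnum.MM22.T4R5
import Cfsg.Agent.CosetEnum.MM22.T4R6
import Cfsg.Agent.CosetEnum.MM22.T4R7
import Cfsg.Agent.CosetEnum.MM22.T3R0

/-! Certificates of coset enumerations and tables (generated, owner: helper28). -/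

set_option autoImplicit false
set_option maxRecDepth 1000000

namespace Cfsg.Agent.CosetEnum.MM22C

theorem st : staticOK 12 iv (RL.map expand) subs P L = true := by decide +kernel

theorem seg : Seg P L P.m 352 :=
  (Seg.nil).snoc part0

theorem cert : Cert 12 iv RL subs 352 := fun g H hl hrels hsubs =>
  upper g H 12 iv hl (RL.map expand) subs hrels hsubs P L rfl st seg

end Cfsg.Agent.CosetEnum.MM22C
namespace Cfsg.Agent.CosetEnum.MM22T4

theorem st : letsB 12 iv lets RL = true := by decide +kernel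

theorem tabOK : TabOK P 12 iv lets RL := ⟨st, (((((((Cov.of r0 rfl).trans (Cov.of r1 rfl)).trans (Cov.of r2 rfl)).trans (Cov.of r3 rfl)).trans (Cov.of r4 rfl)).trans (Cov.of r5 rfl)).trans (Cov.of r6 rfl)).trans (Cov.of r7 rfl)⟩

theorem covO : Cov (orbC P lets [] 0 P.m) 0 P.m := (((((((Cov.of o0 rfl).trans (Cov.of o1 rfl)).trans (Cov.of o2 rfl)).trans (Cov.of o3 rfl)).trans (Cov.of o4 rfl)).trans (Cov.of o5 rfl)).trans (Cov.of o6 rfl)).trans (Cov.of o7 rfl)

end Cfsg.Agent.CosetEnum.MM22T4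
namespace Cfsg.Agent.CosetEnum.MM22T3

theorem st : letsB 12 iv lets RL = true := by decide +kernel

theorem tabOK : TabOK P 12 iv lets RL := ⟨st, Cov.of r0 rfl⟩

theorem covO : Cov (orbC P lets [] 0 P.m) 0 P.m := Cov.of o0 rfl

end Cfsg.Agent.CosetEnum.MM22T3
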